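import Cfsg.Agent.Solv.FrattiniP
import Cfsg.Agent.S0094

/-! Linear groups with a subgroup containing every element with a fixed vector: basic counts. -/

set_option autoImplicit false
set_option linter.unusedSectionVars false

namespace Cfsg.Lib.DRA

open Subgroup MulAction Finset

variable {L V : Type*} [Group L] [Finite L] [CommGroup V] [Finite V] [MulDistribMulAction L V]

/-- The vectors fixed by a set. -/
def Fx (V : Type*) [CommGroup V] [MulDistribMulAction L V] (S : Set L) : Subgroup V where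
  carrier := {v | ∀ y ∈ S, y • v = v}
  mul_mem' := fun {a b} ha hb y hy => by rw [smul_mul', ha y hy, hb y hy]
  one_mem' := fun y _ => smul_one y
  inv_mem' := fun {a} ha y hy => by rw [smul_inv', ha y hy]

theorem Fx_eq_1' : type_of% @Fx.eq_1 := @Fx.eq_1

theorem mem_Fx {S : Set L} {v : V} : v ∈ Fx V S ↔ ∀ y ∈ S, y • v = v := Iff.rfl

theorem mem_Fx1 {y : L} {v : V} : v ∈ Fx V {y} ↔ y • v = v := by simp [mem_Fx]

/-- Not semiregular. -/
def NS (V : Type*) [CommGroup V] [MulDistribMulAction L V] (B : Subgroup L) : Prop :=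
  ∃ y ∈ B, y ≠ 1 ∧ ∃ v : V, v ≠ 1 ∧ y • v = v

theorem NS_eq_1' : type_of% @NS.eq_1 := @NS.eq_1

/-- Elements outside `A` have no fixed vector. -/
def Out (V : Type*) [CommGroup V] [MulDistribMulAction L V] (A : Subgroup L) : Prop :=
  ∀ g, g ∉ A → ∀ v : V, g • v = v → v = 1

theorem Out_eq_1' : type_of% @Out.eq_1 := @Out.eq_1

theorem card_mul_le {H K U : Subgroup V} (h : H ⊓ K = ⊥) (hH : H ≤ U) (hK : K ≤ U) :
    Nat.card H * Nat.card K ≤ Nat.card U := by
  rw [← Nat.card_prod]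
  refine Nat.card_le_card_of_injective
    (fun x : H × K => (⟨x.1 * x.2, mul_mem (hH x.1.2) (hK x.2.2)⟩ : U)) ?_
  rintro ⟨a, b⟩ ⟨a', b'⟩ e
  have e1 : (a : V) * b = a' * b' := congrArg Subtype.val e
  have h1 : (a' : V)⁻¹ * a = b' * (b : V)⁻¹ := by
    rw [inv_mul_eq_iff_eq_mul, ← mul_assoc, ← e1, mul_inv_cancel_right]
  have h2 : (a' : V)⁻¹ * a ∈ H ⊓ K :=
    mem_inf.2 ⟨H.mul_mem (H.inv_mem a'.2) a.2, h1 ▸ K.mul_mem b'.2 (K.inv_mem b.2)⟩
  rw [h, mem_bot] at h2
  have h3 : a = a' := Subtype.ext (inv_mul_eq_one.1 h2).symm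
  subst h3
  exact Prod.ext rfl (Subtype.ext (mul_left_cancel e1))

theorem card_conj (S : Set L) (g : L) {S' : Set L} (h : ∀ y, y ∈ S' ↔ g⁻¹ * y * g ∈ S) :
    Nat.card (Fx V S') = Nat.card (Fx V S) := by
  refine Nat.card_congr ⟨fun v => ⟨g⁻¹ • v.1, fun y hy => ?_⟩, fun v => ⟨g • v.1, fun y hy => ?_⟩,
    fun v => Subtype.ext (smul_inv_smul g v.1), fun v => Subtype.ext (inv_smul_smul g v.1)⟩
  · have := v.2 (g * y * g⁻¹) ((h _).2 (by simpa [mul_assoc] using hy))
    rw [smul_smul, show y * g⁻¹ = g⁻¹ * (g * y * g⁻¹) by group, mul_smul, this]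
  · have := v.2 _ ((h y).1 hy)
    rw [smul_smul, show y * g = g * (g⁻¹ * y * g) by group, mul_smul, this]

theorem stab_le {A : Subgroup L} (hA : Out V A) {v : V} (hv : v ≠ 1) : stabilizer L v ≤ A :=
  fun g hg => by_contra fun h => hv (hA g h v hg)

theorem orb_ge {A B : Subgroup L} (hA : Out V A) (hBA : B ≤ A) {v : V} (hv : v ≠ 1) :
    A.index * Nat.card B ≤ (orbit L v).ncard * Nat.card (stabilizer L v ⊓ B : Subgroup L) := by
  rw [← index_stabilizer, ← relIndex_mul_index (stab_le hA hv)]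
  have h1 : (stabilizer L v).relIndex B ≤ (stabilizer L v).relIndex A :=
    relIndex_le_of_le_right hBA index_ne_zero_of_finite
  have h2 : (stabilizer L v).relIndex B * Nat.card (stabilizer L v ⊓ B : Subgroup L) =
      Nat.card B := by
    rw [← inf_relIndex_right, relIndex, ← Nat.card_congr
      (subgroupOfEquivOfLe (inf_le_right : stabilizer L v ⊓ B ≤ B)).toEquiv, index_mul_card]
  rw [← h2]
  calc A.index * ((stabilizer L v).relIndex B * Nat.card (stabilizer L v ⊓ B : Subgroup L))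
      ≤ A.index * ((stabilizer L v).relIndex A * Nat.card (stabilizer L v ⊓ B : Subgroup L)) := by
        gcongr
    _ = _ := by ring

theorem inv_sub {A : Subgroup L} (hA : Out V A) {W : Subgroup V} (hW : ∀ g : L, ∀ w ∈ W, g • w ∈ W)
    (h0 : W ≠ ⊥) (h1 : W ≠ ⊤) : (A.index + 1) ^ 2 ≤ Nat.card V := by
  have aux : ∀ x b a : V, x * b⁻¹ * a * x⁻¹ = a * b⁻¹ := fun x b a => by
    rw [mul_comm _ x⁻¹, mul_assoc x, inv_mul_cancel_left, mul_comm]
  have key : ∀ U : Subgroup V, (∀ g : L, ∀ w ∈ U, g • w ∈ U) → ∀ v : V, v ∉ U → ∀ g : L, g ∉ A →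
      (g • v) * v⁻¹ ∉ U := by
    intro U hU v hv g hg hm
    let φ : U → U := fun w => ⟨(g • w.1) * w.1⁻¹, mul_mem (hU g _ w.2) (inv_mem w.2)⟩
    have hi : Function.Injective φ := by
      intro a b e
      have e1 : (g • a.1) * a.1⁻¹ = (g • b.1) * b.1⁻¹ := congrArg Subtype.val e
      have e2 : g • (a.1 * b.1⁻¹) = a.1 * b.1⁻¹ := by
        rw [smul_mul', smul_inv', mul_inv_eq_iff_eq_mul.1 e1]
        exact aux _ _ _
      exact Subtype.ext (mul_inv_eq_one.1 (hA g hg _ e2))
    obtain ⟨w, hw⟩ := Finite.surjective_of_injective hi ⟨_, hm⟩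
    have e1 : (g • w.1) * w.1⁻¹ = (g • v) * v⁻¹ := congrArg Subtype.val hw
    have e2 : g • (w.1 * v⁻¹) = w.1 * v⁻¹ := by
      rw [smul_mul', smul_inv', mul_inv_eq_iff_eq_mul.1 e1]
      exact aux _ _ _
    exact hv (mul_inv_eq_one.1 (hA g hg _ e2) ▸ w.2)
  have opt : Nat.card (Option (L ⧸ A)) = A.index + 1 := by
    rw [Finite.card_option]; rfl
  have dist : ∀ U : Subgroup V, (∀ g : L, ∀ w ∈ U, g • w ∈ U) → ∀ v : V, v ∉ U → ∀ c d : L ⧸ A,
      (c.out • v)⁻¹ * (d.out • v) ∈ U → c = d := by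
    intro U hU v hv c d hm
    by_contra hne
    have hg : c.out⁻¹ * d.out ∉ A := fun h => hne (by
      rw [← c.out_eq', ← d.out_eq']; exact QuotientGroup.eq.2 h)
    refine key U hU v hv _ hg ?_
    have := hU c.out⁻¹ _ hm
    rwa [smul_mul', smul_inv', inv_smul_smul, smul_smul, mul_comm] at this
  obtain ⟨w, hw, hw1⟩ : ∃ w ∈ W, w ≠ 1 := by
    by_contra h
    push Not at h
    exact h0 ((eq_bot_iff_forall W).2 h)
  obtain ⟨v, hv⟩ : ∃ v, v ∉ W := by
    by_contra h
    push Not at h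
    exact h1 ((eq_top_iff' W).2 h)
  have c1 : A.index + 1 ≤ Nat.card W := by
    rw [← opt]
    refine Nat.card_le_card_of_injective
      (fun o => (Option.elim o 1 (fun c => ⟨c.out • w, hW _ _ hw⟩) : W)) ?_
    have ne : ∀ c : L ⧸ A, c.out • w ≠ 1 := fun c e => hw1 (by
      rw [← inv_smul_smul c.out w, e, smul_one])
    rintro (_ | c) (_ | d) e
    · rfl
    · exact absurd (congrArg Subtype.val e).symm (ne d)
    · exact absurd (congrArg Subtype.val e) (ne c)
    · have e1 : c.out • w = d.out • w := congrArg Subtype.val e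
      rw [dist ⊥ (fun g w h => by rw [mem_bot.1 h, smul_one]; exact one_mem _) w
        (fun h => hw1 (mem_bot.1 h)) c d (by rw [e1, inv_mul_cancel]; exact one_mem _)]
  have c2 : A.index + 1 ≤ W.index := by
    rw [← opt]
    refine Nat.card_le_card_of_injective
      (fun o => (Option.elim o 1 (fun c => ((c.out • v : V) : V ⧸ W)) : V ⧸ W)) ?_
    have ne : ∀ c : L ⧸ A, ((c.out • v : V) : V ⧸ W) ≠ 1 := fun c e => hv (by
      rw [← inv_smul_smul c.out v]; exact hW _ _ ((QuotientGroup.eq_one_iff _).1 e))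
    rintro (_ | c) (_ | d) e
    · rfl
    · exact absurd e.symm (ne d)
    · exact absurd e (ne c)
    · rw [dist W hW v hv c d (QuotientGroup.eq.1 e)]
  rw [← W.card_mul_index, sq]
  exact Nat.mul_le_mul c1 c2

theorem card_stab_smul {B : Subgroup L} [hB : B.Normal] (g : L) (v : V) :
    Nat.card (stabilizer L (g • v) ⊓ B : Subgroup L) = Nat.card (stabilizer L v ⊓ B : Subgroup L) := by
  refine Nat.card_congr ⟨fun y => ⟨g⁻¹ * y.1 * g, ?_, ?_⟩, fun y => ⟨g * y.1 * g⁻¹, ?_, ?_⟩,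
    fun y => Subtype.ext (by simp [mul_assoc]), fun y => Subtype.ext (by simp [mul_assoc])⟩
  · have : y.1 • g • v = g • v := y.2.1
    change (g⁻¹ * y.1 * g) • v = v
    rw [mul_smul, mul_smul, this, inv_smul_smul]
  · exact hB.conj_mem' _ y.2.2 g
  · have : y.1 • v = v := y.2.1
    change (g * y.1 * g⁻¹) • g • v = g • v
    rw [mul_smul, inv_smul_smul, mul_smul, this]
  · exact hB.conj_mem _ y.2.2 g

open Classical in
/-- The basic count. -/
theorem cnt [Fintype L] {A B : Subgroup L} [hB : B.Normal] (hA : Out V A) (hBA : B ≤ A) {v : V}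
    (hv : v ≠ 1) :
    A.index * Nat.card B * (Nat.card (stabilizer L v ⊓ B : Subgroup L) - 1) ≤
      Nat.card (stabilizer L v ⊓ B : Subgroup L) *
        ∑ y ∈ univ.filter (fun y : L => y ∈ B ∧ y ≠ 1), (Nat.card (Fx V {y}) - 1) := by
  have := Fintype.ofFinite V
  set σ := Nat.card (stabilizer L v ⊓ B : Subgroup L) with hσ
  have h1 : ∀ y : L, Nat.card (Fx V {y}) - 1 =
      ∑ w ∈ univ.filter (fun w : V => w ≠ 1), if y • w = w then 1 else 0 := by
    intro y
    have : Nat.card (Fx V {y}) = (univ.filter fun w : V => y • w = w).card := by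
      rw [← Nat.card_eq_finsetCard]
      exact Nat.card_congr (Equiv.subtypeEquivRight fun w => by simp [mem_Fx1])
    rw [← card_filter, filter_filter, this, ← card_erase_of_mem (a := 1) (by simp)]
    congr 1; ext w; simp
  have h2 : ∀ w : V, σ - 1 ≤ (if w ∈ orbit L v then
      ∑ y ∈ univ.filter (fun y : L => y ∈ B ∧ y ≠ 1), if y • w = w then 1 else 0 else σ - 1) := by
    intro w
    split_ifs with hw
    · obtain ⟨g, rfl⟩ := hw
      rw [hσ, ← card_stab_smul g v, ← card_filter, filter_filter]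
      refine le_of_eq ?_
      have : Nat.card (stabilizer L (g • v) ⊓ B : Subgroup L) =
          (univ.filter fun y : L => y ∈ B ∧ y • g • v = g • v).card := by
        rw [← Nat.card_eq_finsetCard]
        exact Nat.card_congr (Equiv.subtypeEquivRight fun y => by simp [and_comm])
      rw [this, ← card_erase_of_mem (a := 1) (by simp)]
      congr 1; ext y; simp; tauto
    · exact le_rfl
  have h3 : (orbit L v).ncard * (σ - 1) ≤
      ∑ y ∈ univ.filter (fun y : L => y ∈ B ∧ y ≠ 1), (Nat.card (Fx V {y}) - 1) := by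
    simp only [h1]
    rw [sum_comm, Set.ncard_eq_toFinset_card', ← smul_eq_mul, ← sum_const]
    refine le_trans (sum_le_sum fun w hw => ?_) (sum_le_sum_of_subset (s := (orbit L v).toFinset) ?_)
    · have := h2 w
      rwa [if_pos (Set.mem_toFinset.1 hw)] at this
    · intro w hw
      obtain ⟨g, rfl⟩ := Set.mem_toFinset.1 hw
      refine mem_filter.2 ⟨mem_univ _, fun e => hv ?_⟩
      rw [← inv_smul_smul g v]
      exact (congrArg (g⁻¹ • ·) e).trans (smul_one _)
  calc A.index * Nat.card B * (σ - 1) ≤ (orbit L v).ncard * σ * (σ - 1) :=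
        Nat.mul_le_mul_right _ (orb_ge hA hBA hv)
    _ = σ * ((orbit L v).ncard * (σ - 1)) := by ring
    _ ≤ _ := Nat.mul_le_mul_left _ h3

end Cfsg.Lib.DRA
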