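import Cfsg.Agent.DRA.A1

/-! Linear groups with a subgroup containing every element with a fixed vector: the bound. -/

set_option autoImplicit false
set_option linter.unusedSectionVars false

namespace Cfsg.Lib.DRA

open Subgroup MulAction Finset

variable {L V : Type*} [Group L] [Finite L] [CommGroup V] [Finite V] [MulDistribMulAction L V]

theorem bern {q k d : ℕ} (hk : 2 ≤ k) (h : 2 * q ≤ k * d) : (q + 1) ^ 2 ≤ (d + 1) ^ k := by
  have h1 : (1 : ℝ) + (k / 2 : ℝ) * d ≤ (1 + d) ^ (k / 2 : ℝ) :=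
    one_add_mul_self_le_rpow_one_add (by have := Nat.cast_nonneg (α := ℝ) d; linarith)
      (by have : (2 : ℝ) ≤ k := by exact_mod_cast hk
          linarith)
  have h2 : (2 : ℝ) * q ≤ k * d := by exact_mod_cast h
  have h3 : ((q : ℝ) + 1) ^ 2 ≤ ((1 + d : ℝ) ^ (k / 2 : ℝ)) ^ 2 :=
    pow_le_pow_left₀ (by positivity) (by linarith) 2
  rw [← Real.rpow_natCast _ 2, ← Real.rpow_natCast _ 2, ← Real.rpow_mul (by positivity)] at h3
  rw [show (k / 2 : ℝ) * ((2 : ℕ) : ℝ) = (k : ℝ) by push_cast; ring, Real.rpow_natCast,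
    Real.rpow_natCast, add_comm (1 : ℝ)] at h3
  exact_mod_cast h3

theorem abel_case {A B : Subgroup L} [hB : B.Normal] (hA : Out V A) (hBA : B ≤ A)
    (hc : ∀ a ∈ B, ∀ b ∈ B, a * b = b * a) (hns : NS V B)
    (hmin : ∀ B' : Subgroup L, B'.Normal → B' < B → ¬ NS V B') (h0 : Fx V (B : Set L) = ⊥) :
    (A.index + 1) ^ 2 ≤ Nat.card V := by
  classical
  have := Fintype.ofFinite V
  obtain ⟨y0, hy0, hy1, v0, hv0, hyv⟩ := hns
  obtain ⟨v, hv, hmax⟩ := exists_max_image (univ.filter fun v : V => v ≠ 1)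
    (fun v => Nat.card (stabilizer L v ⊓ B : Subgroup L)) ⟨v0, by simpa using hv0⟩
  have hv : v ≠ 1 := by simpa using hv
  have hmax : ∀ w : V, w ≠ 1 → Nat.card (stabilizer L w ⊓ B : Subgroup L) ≤
      Nat.card (stabilizer L v ⊓ B : Subgroup L) := fun w hw => hmax w (by simpa using hw)
  let St : V → Subgroup L := fun w => stabilizer L w ⊓ B
  have hS : St v ≠ ⊥ := by
    intro e
    have h1 := hmax v0 hv0
    have h2 : Nat.card (St v) = 1 := by rw [e]; exact card_bot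
    have h3 : stabilizer L v0 ⊓ B = ⊥ := Subgroup.card_eq_one.1 (le_antisymm (h1.trans h2.le) Nat.card_pos)
    exact hy1 (mem_bot.1 (h3 ▸ mem_inf.2 ⟨hyv, hy0⟩))
  have hSB : St v ≠ B := fun e => hv (mem_bot.1 (h0 ▸ fun y hy => (mem_inf.1 (e.symm ▸ hy : y ∈ St v)).1))
  have hlt : St v < B := lt_of_le_of_ne inf_le_right hSB
  let F : Finset (Subgroup L) := (orbit L v).toFinset.image St
  have hF : ∀ T ∈ F, ∃ g : L, T = St (g • v) := fun T hT => by
    obtain ⟨w, hw, rfl⟩ := mem_image.1 hT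
    obtain ⟨g, rfl⟩ := Set.mem_toFinset.1 hw
    exact ⟨g, rfl⟩
  have hF' : ∀ g : L, St (g • v) ∈ F := fun g =>
    mem_image.2 ⟨_, Set.mem_toFinset.2 ⟨g, rfl⟩, rfl⟩
  have hmem : ∀ g y : L, y ∈ St (g • v) ↔ g⁻¹ * y * g ∈ St v := fun g y => by
    simp only [St, Subgroup.mem_inf, mem_stabilizer_iff, mul_smul, inv_smul_eq_iff]
    exact and_congr_right fun _ => ⟨fun h => hB.conj_mem' _ h g, fun h => by
      simpa [mul_assoc] using hB.conj_mem _ h g⟩
  have hk : 2 ≤ F.card := by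
    by_contra hlt'
    have h1 : ∀ g : L, St (g • v) = St v := fun g => by
      have := card_le_one.1 (by omega : F.card ≤ 1) _ (hF' g) _ (hF' 1)
      rwa [one_smul] at this
    refine hmin (St v) ⟨fun y hy g => ?_⟩ hlt ?_
    · rw [← h1 g, hmem]; simpa [mul_assoc] using hy
    · obtain ⟨y, hy, hy'⟩ : ∃ y ∈ St v, y ≠ 1 := by
        by_contra h
        push Not at h
        exact hS ((eq_bot_iff_forall _).2 h)
      exact ⟨y, hy, hy', v, hv, (mem_inf.1 hy).1⟩
  have hx : ∀ T ∈ F, Nat.card (Fx V (T : Set L)) = Nat.card (Fx V (St v : Set L)) := fun T hT => by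
    obtain ⟨g, rfl⟩ := hF T hT
    exact card_conj _ g (hmem g)
  have hcard : ∀ T ∈ F, Nat.card T = Nat.card (St v) := fun T hT => by
    obtain ⟨g, rfl⟩ := hF T hT
    exact card_stab_smul g v
  have hle : ∀ T ∈ F, T ≤ B := fun T hT => by
    obtain ⟨g, rfl⟩ := hF T hT
    exact inf_le_right
  have hinv : ∀ T ∈ F, ∀ b ∈ B, ∀ w ∈ Fx V (T : Set L), b • w ∈ Fx V (T : Set L) :=
    fun T hT b hb w hw y hy => by
      rw [smul_smul, hc y (hle T hT hy) b hb, mul_smul, hw y hy]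
  have hst : ∀ T ∈ F, ∀ w ∈ Fx V (T : Set L), ∀ b ∈ B, b ∉ T → b • w = w → w = 1 := by
    intro T hT w hw b hb hbT e
    by_contra hw1
    have h1 : T ≤ St w := fun y hy => mem_inf.2 ⟨hw y hy, hle T hT hy⟩
    have h2 : T = St w := eq_of_le_of_card_ge h1 ((hmax w hw1).trans (hcard T hT).ge)
    exact hbT (h2 ▸ mem_inf.2 ⟨e, hb⟩)
  have ind : ∀ J : Finset (Subgroup L), J ⊆ F →
      (∀ b ∈ B, ∀ w ∈ J.sup fun T => Fx V (T : Set L), b • w ∈ J.sup fun T => Fx V (T : Set L)) ∧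
      (∀ T ∈ F, T ∉ J → Fx V (T : Set L) ⊓ (J.sup fun T => Fx V (T : Set L)) = ⊥) ∧
      Nat.card (Fx V (St v : Set L)) ^ J.card ≤
        Nat.card (J.sup fun T => Fx V (T : Set L) : Subgroup V) := by
    intro J
    induction J using Finset.induction_on with
    | empty =>
      intro _
      refine ⟨fun b _ w hw => ?_, fun T _ _ => by simp, by simp⟩
      rw [sup_empty, mem_bot] at hw ⊢
      rw [hw, smul_one]
    | insert T' J hT' ih =>
      intro hsub
      have hT'F : T' ∈ F := hsub (mem_insert_self _ _)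
      obtain ⟨i1, i2, i3⟩ := ih ((subset_insert _ _).trans hsub)
      rw [sup_insert]
      refine ⟨fun b hb w hw => ?_, fun T hT hTJ => ?_, ?_⟩
      · obtain ⟨a, ha, r, hr, rfl⟩ := mem_sup.1 hw
        rw [smul_mul']
        exact mul_mem_sup (hinv T' hT'F b hb a ha) (i1 b hb r hr)
      · rw [eq_bot_iff_forall]
        intro u hu
        obtain ⟨hu1, hu2⟩ := mem_inf.1 hu
        obtain ⟨a, ha, r, hr, rfl⟩ := mem_sup.1 hu2
        have hne : ¬ T' ≤ T := fun hl => hTJ (by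
          rw [← eq_of_le_of_card_ge hl ((hcard T hT).trans (hcard T' hT'F).symm).le]
          exact mem_insert_self _ _)
        obtain ⟨b, hb, hbT⟩ := SetLike.not_le_iff_exists.1 hne
        have hbB := hle T' hT'F hb
        have e1 : b • (a * r) * (a * r)⁻¹ = b • r * r⁻¹ := by
          rw [smul_mul', ha b hb, mul_inv, mul_mul_mul_comm, mul_inv_cancel, one_mul]
        have e2 : b • (a * r) * (a * r)⁻¹ ∈ Fx V (T : Set L) ⊓ (J.sup fun T => Fx V (T : Set L)) :=
          mem_inf.2 ⟨Subgroup.mul_mem _ (hinv T hT b hbB _ hu1) (Subgroup.inv_mem _ hu1),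
            e1 ▸ Subgroup.mul_mem _ (i1 b hbB r hr) (Subgroup.inv_mem _ hr)⟩
        rw [i2 T hT fun h => hTJ (mem_insert_of_mem h), mem_bot, mul_inv_eq_one] at e2
        exact hst T hT _ hu1 b hbB hbT e2
      · rw [card_insert_of_notMem hT', pow_succ', ← hx T' hT'F]
        refine le_trans (Nat.mul_le_mul_left _ (hx T' hT'F ▸ i3)) ?_
        exact card_mul_le (i2 T' hT'F hT') le_sup_left le_sup_right
  have h1 : Nat.card (Fx V (St v : Set L)) ^ F.card ≤ Nat.card V :=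
    (ind F subset_rfl).2.2.trans (card_le_card_group _)
  have h2 : (orbit L v).ncard ≤ F.card * (Nat.card (Fx V (St v : Set L)) - 1) := by
    rw [Set.ncard_eq_toFinset_card', ← smul_eq_mul, ← sum_const]
    refine le_trans (card_le_card (t := F.biUnion fun T =>
      (univ.filter fun w => w ∈ Fx V (T : Set L)).erase 1) fun w hw => ?_)
      (card_biUnion_le.trans (sum_le_sum fun T hT => le_of_eq ?_))
    · obtain ⟨g, rfl⟩ := Set.mem_toFinset.1 hw
      refine mem_biUnion.2 ⟨_, hF' g, mem_erase.2 ⟨fun e => hv ?_,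
        mem_filter.2 ⟨mem_univ _, fun y hy => (mem_inf.1 hy).1⟩⟩⟩
      rw [← inv_smul_smul g v]
      exact (congrArg (g⁻¹ • ·) e).trans (smul_one _)
    · rw [card_erase_of_mem (by simp), ← hx T hT, ← Nat.card_eq_finsetCard]
      exact congrArg (· - 1) (Nat.card_congr (Equiv.subtypeEquivRight fun w => by simp))
  have h3 := orb_ge hA hBA hv
  have h4 : 2 * Nat.card (St v) ≤ Nat.card B := by
    obtain ⟨c, hc⟩ := card_dvd_of_le hlt.le
    have : Nat.card (St v) < Nat.card B := by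
      refine lt_of_le_of_ne (card_le_of_le hlt.le) fun e => hSB (eq_of_le_of_card_ge hlt.le e.ge)
    rw [hc] at this ⊢
    have : 1 < c := by
      by_contra h
      have : c ≤ 1 := by omega
      nlinarith
    nlinarith
  have h5 : 2 * A.index ≤ (orbit L v).ncard := by
    have hp : 0 < Nat.card (St v) := Nat.card_pos
    refine Nat.le_of_mul_le_mul_right ?_ hp
    calc 2 * A.index * Nat.card (St v) = A.index * (2 * Nat.card (St v)) := by ring
      _ ≤ A.index * Nat.card B := Nat.mul_le_mul_left _ h4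
      _ ≤ _ := h3
  have h6 := bern hk (h5.trans h2)
  have hp : 0 < Nat.card (Fx V (St v : Set L)) := Nat.card_pos
  rw [Nat.sub_add_cancel hp] at h6
  exact h6.trans h1

theorem tri {q a b c : ℕ} (hq : 2 ≤ q) (ha : a ≤ q) (hb : b ≤ q) (hc : c ≤ q)
    (h : a * b * c < (q + 1) ^ 2) : a + b + c ≤ 2 * q + 2 := by
  by_contra hlt
  obtain ⟨x, rfl⟩ := Nat.exists_eq_add_of_le ha
  obtain ⟨y, hy⟩ := Nat.exists_eq_add_of_le hb
  obtain ⟨z, hz⟩ := Nat.exists_eq_add_of_le hc
  have h1 : (3 : ℤ) * (a + x) ^ 2 ≤ a * b * c := by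
    have e1 : (b : ℤ) = a + x - y := by omega
    have e2 : (c : ℤ) = a + x - z := by omega
    have e3 : (x : ℤ) + y + z + 3 ≤ a + x := by omega
    have x0 : (0 : ℤ) ≤ x := by positivity
    have y0 : (0 : ℤ) ≤ y := by positivity
    have z0 : (0 : ℤ) ≤ z := by positivity
    obtain ⟨Q, hQ⟩ : ∃ Q : ℤ, Q = a + x := ⟨_, rfl⟩
    have e4 : (a : ℤ) = Q - x := by omega
    rw [← hQ] at e1 e2 e3 ⊢
    rw [e1, e2, e4]
    have k1 : Q * (Q - x - y) ≤ (Q - x) * (Q - y) := by nlinarith [mul_nonneg x0 y0]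
    have k2 : Q * (Q - x - y - z) ≤ (Q - x - y) * (Q - z) := by
      nlinarith [mul_nonneg (add_nonneg x0 y0) z0]
    have q0 : 0 ≤ Q := by omega
    have k3 : Q * (Q - x - y) * (Q - z) ≤ (Q - x) * (Q - y) * (Q - z) :=
      mul_le_mul_of_nonneg_right k1 (by omega)
    have k4 : Q * (Q * (Q - x - y - z)) ≤ Q * ((Q - x - y) * (Q - z)) :=
      mul_le_mul_of_nonneg_left k2 q0
    have k5 : Q * Q * 3 ≤ Q * Q * (Q - x - y - z) :=
      mul_le_mul_of_nonneg_left (by omega) (mul_nonneg q0 q0)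
    nlinarith
  have h2 : ((a : ℤ) * b * c) < (a + x + 1) ^ 2 := by exact_mod_cast h
  have h3 : (2 : ℤ) ≤ a + x := by exact_mod_cast hq
  nlinarith

theorem three {y z : L} (hc : y * z = z * y) (h1 : ∀ v : V, z • v = v → v = 1)
    (h2 : ∀ v : V, (z * z) • v = v → v = 1) :
    Nat.card (Fx V {y}) * Nat.card (Fx V {y * z}) * Nat.card (Fx V {y * z * z}) ≤ Nat.card V := by
  have d1 : Fx V {y} ⊓ Fx V {y * z} = ⊥ := by
    rw [eq_bot_iff_forall]
    intro u hu
    have k1 := mem_Fx1.1 (mem_inf.1 hu).1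
    have k2 := mem_Fx1.1 (mem_inf.1 hu).2
    rw [hc, mul_smul, k1] at k2
    exact h1 u k2
  have d2 : (Fx V {y} ⊔ Fx V {y * z}) ⊓ Fx V {y * z * z} = ⊥ := by
    rw [eq_bot_iff_forall]
    intro u hu
    obtain ⟨a, ha, b, hb, rfl⟩ := Subgroup.mem_sup.1 (Subgroup.mem_inf.1 hu).1
    have k1 := mem_Fx1.1 ha
    have k2 := mem_Fx1.1 hb
    have k3 := mem_Fx1.1 (mem_inf.1 hu).2
    have e1 : y * z * z = z * z * y := by rw [hc, mul_assoc, hc, mul_assoc]
    have e2 : y * z * z = z * (y * z) := by rw [hc, mul_assoc, hc]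
    have k4 : (z * z) • a * z • b = a * b := by
      rw [← k3, smul_mul']
      congr 1
      · rw [e1, mul_smul (z * z), k1]
      · rw [e2, mul_smul z, k2]
    have k5 : (z * z) • a * a⁻¹ = b * (z • b)⁻¹ := by
      rw [mul_inv_eq_iff_eq_mul, mul_right_comm, eq_mul_inv_iff_mul_eq, k4, mul_comm]
    have m1 : (z * z) • a ∈ Fx V {y} := mem_Fx1.2 (by
      rw [smul_smul, ← mul_assoc, e1, mul_smul (z * z), k1])
    have m2 : z • b ∈ Fx V {y * z} := mem_Fx1.2 (by rw [smul_smul, e2, mul_smul z, k2])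
    have m3 : (z * z) • a * a⁻¹ ∈ Fx V {y} ⊓ Fx V {y * z} :=
      mem_inf.2 ⟨Subgroup.mul_mem _ m1 (Subgroup.inv_mem _ ha),
        k5 ▸ Subgroup.mul_mem _ hb (Subgroup.inv_mem _ m2)⟩
    rw [d1, mem_bot] at m3
    rw [m3, eq_comm, mul_inv_eq_one] at k5
    rw [h2 a (mul_inv_eq_one.1 m3), h1 b k5.symm, mul_one]
  exact (Nat.mul_le_mul_right _ (card_mul_le d1 le_sup_left le_sup_right)).trans
    ((card_mul_le d2 le_top le_top).trans (card_le_card_group _))

end Cfsg.Lib.DRA
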