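import Cfsg.Agent.DRG.Defs
import Cfsg.Agent.DRA.Imp
import Cfsg.Agent.FT.Final

/-! Derangement subgroup: the regular Sylow subgroup is normal, and the group is Frobenius. -/

set_option autoImplicit false

namespace Cfsg.Lib.DRA

open MulAction Cfsg.Lib.Perm.Derange Cfsg.Lib.DRG

theorem ab_normal {G : Type*} [Group G] {D : Subgroup G} [D.Normal] (hs : Group.IsSolvable D)
    (hD : D ≠ ⊥) : ∃ V : Subgroup G, V.Normal ∧ V ≠ ⊥ ∧ V ≤ D ∧ ∀ a ∈ V, ∀ b ∈ V, a * b = b * a := by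
  classical
  have hex : ∃ n, derivedSeries D n = ⊥ := hs.solvable
  have h0 : Nat.find hex ≠ 0 := by
    intro h
    have := Nat.find_spec hex
    rw [h, derivedSeries_zero] at this
    apply hD
    rw [eq_bot_iff]
    intro x hx
    have h1 : (⟨x, hx⟩ : D) ∈ (⊥ : Subgroup D) := this ▸ Subgroup.mem_top _
    exact congrArg Subtype.val (Subgroup.mem_bot.1 h1)
  obtain ⟨k, hk⟩ := Nat.exists_eq_succ_of_ne_zero h0
  have h1 : derivedSeries D k ≠ ⊥ := Nat.find_min hex (by omega)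
  have h2 : derivedSeries D (k + 1) = ⊥ := by
    have := Nat.find_spec hex
    rwa [hk] at this
  have := derivedSeries_characteristic D k
  refine ⟨(derivedSeries D k).map D.subtype, inferInstance, ?_, Subgroup.map_subtype_le _, ?_⟩
  · rwa [Ne, Subgroup.map_eq_bot_iff_of_injective _ D.subtype_injective]
  · rintro _ ⟨a, ha, rfl⟩ _ ⟨b, hb, rfl⟩
    have := Subgroup.commutator_mem_commutator ha hb
    rw [← derivedSeries_succ, h2, Subgroup.mem_bot, commutatorElement_eq_one_iff_mul_comm] at this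
    exact congrArg Subtype.val this

variable {G Ω : Type*} [Group G] [MulAction G Ω]

theorem rq_card {Q : Subgroup G} {δ : Ω} (h : RQ Q δ) : Nat.card Q = Nat.card Ω := by
  refine Nat.card_congr (Equiv.ofBijective (fun v : Q => (v : G) • δ) ⟨?_, ?_⟩)
  · intro v w e
    have : (w : G)⁻¹ * v = 1 := h.reg _ (mul_mem (inv_mem w.2) v.2) δ (by
      rw [mul_smul, inv_smul_eq_iff]; exact e)
    exact Subtype.ext (inv_mul_eq_one.mp this).symm
  · intro ω
    obtain ⟨v, hv, e⟩ := h.tr ω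
    exact ⟨⟨v, hv⟩, e⟩

theorem rq_of_normal [IsPreprimitive G Ω] (fai : ∀ g : G, (∀ ω : Ω, g • ω = ω) → g = 1)
    (V : Subgroup G) [V.Normal] (hab : ∀ x ∈ V, ∀ y ∈ V, x * y = y * x) (hV : V ≠ ⊥) (δ : Ω) :
    RQ V δ := by
  have htr : IsPretransitive V Ω := by
    refine IsQuasiPreprimitive.isPretransitive_of_normal ?_
    intro hfix
    apply hV
    rw [eq_bot_iff]
    intro v hv
    rw [Subgroup.mem_bot]
    refine fai v fun ω => ?_
    have : ω ∈ fixedPoints V Ω := hfix ▸ Set.mem_univ ω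
    exact this ⟨v, hv⟩
  refine ⟨hab, fun ω => ?_, fun x hx a ha => fai x fun ω => ?_⟩
  · obtain ⟨⟨v, hv⟩, e⟩ := htr.exists_smul_eq δ ω
    exact ⟨v, hv, e⟩
  · obtain ⟨⟨v, hv⟩, e⟩ := htr.exists_smul_eq a ω
    have e' : v • a = ω := e
    rw [← e', ← mul_smul, hab x hx v hv, mul_smul, ha]

/-- The regular Sylow subgroup is normal. -/
theorem reg_normal [Finite G] [Finite Ω] [IsPreprimitive G Ω] {Q : Subgroup G} {δ : Ω} {q : ℕ}
    (h : Reg Q δ q) (hsyl : ¬ q ∣ (Q.subgroupOf (der G Ω)).index)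
    (hc : (Q.subgroupOf (der G Ω)).Normal ∨ Odd (Nat.card (der G Ω))) : Q.Normal := by
  have := Fact.mk h.prime
  have hp : IsPGroup q (Q.subgroupOf (der G Ω)) := h.pg.comap_subtype
  let S : Sylow q (der G Ω) := hp.toSylow hsyl
  have hS : (S : Subgroup (der G Ω)) = Q.subgroupOf (der G Ω) := rfl
  rcases hc with hc | hc
  · have hn : (S : Subgroup (der G Ω)).Normal := hc
    have hch := Sylow.characteristic_of_normal S hn
    have : ((S : Subgroup (der G Ω)).map (der G Ω).subtype).Normal := inferInstance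
    rwa [hS, Subgroup.subgroupOf_map_subtype, inf_eq_left.mpr h.le] at this
  · have hcQ := rq_card h.toRQ
    have hD : der G Ω ≠ ⊥ := by
      intro e
      have h1 := h.le
      rw [e, le_bot_iff] at h1
      have h2 := h.two
      rw [← hcQ, h1, Subgroup.card_bot] at h2
      omega
    obtain ⟨V, hVn, hV, hVD, hab⟩ := ab_normal (FT.odd_order_solvable hc) hD
    have hcV := rq_card (rq_of_normal h.fai V hab hV δ)
    obtain ⟨k, hk⟩ := IsPGroup.iff_card.mp h.pg
    have hVp : IsPGroup q V := IsPGroup.iff_card.mpr ⟨k, by rw [hcV, ← hcQ, hk]⟩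
    have hVp' : IsPGroup q (V.subgroupOf (der G Ω)) := hVp.comap_subtype
    have hle : V.subgroupOf (der G Ω) ≤ S := by
      obtain ⟨T, hT⟩ := hVp'.exists_le_sylow
      obtain ⟨g, rfl⟩ := MulAction.exists_smul_eq (der G Ω) S T
      intro x hx
      have hx' : g * x * g⁻¹ ∈ V.subgroupOf (der G Ω) :=
        Subgroup.Normal.conj_mem inferInstance x hx g
      have := hT hx'
      rw [Sylow.coe_subgroup_smul, Subgroup.mem_pointwise_smul_iff_inv_smul_mem] at this
      simpa [mul_assoc] using this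
    have hVQ : V ≤ Q := fun x hx => hle (show (⟨x, hVD hx⟩ : der G Ω) ∈ V.subgroupOf _ from hx)
    have : V = Q := Subgroup.eq_of_le_of_card_ge hVQ (by rw [hcV, hcQ])
    exact this ▸ hVn

/-- No nonidentity element fixes two points. -/
theorem rq_frob [Finite Ω] {Q : Subgroup G} [Q.Normal] {δ : Ω} (h : RQ Q δ)
    (semi : ∀ e ∈ EE Q δ, e ≠ 1 → ∀ w ∈ Q, e * w = w * e → w = 1) (g : G) (hg : g ≠ 1) :
    Nat.card (fixedBy Ω g) ≤ 1 := by
  by_contra! hy
  obtain ⟨⟨a, ha⟩, ⟨b, hb⟩, hab'⟩ := Finite.one_lt_card_iff_nontrivial.mp hy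
  have hne : a ≠ b := fun e => hab' (Subtype.ext e)
  have ha' : g • a = a := ha
  have hb' : g • b = b := hb
  obtain ⟨x, -, rfl⟩ := h.tr a
  obtain ⟨w, hw, e⟩ := h.tr (x⁻¹ • b)
  have h1 : (x⁻¹ * g * x) • δ = δ := by
    rw [mul_smul, mul_smul, ha', inv_smul_smul]
  have h2 : (x⁻¹ * g * x) • w • δ = w • δ := by
    rw [e, mul_smul, mul_smul, smul_inv_smul, hb']
  have hne1 : x⁻¹ * g * x ≠ 1 := fun e1 => hg (by
    have : g = x * (x⁻¹ * g * x) * x⁻¹ := by group
    rw [this, e1]; group)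
  generalize x⁻¹ * g * x = y at h1 h2 hne1
  have hm : w⁻¹ * (y * w * y⁻¹) ∈ Q :=
    mul_mem (inv_mem hw) (Subgroup.Normal.conj_mem inferInstance w hw y)
  have h3 := h.reg _ hm δ (by
    rw [mul_smul, inv_smul_eq_iff, mul_smul, mul_smul, inv_smul_eq_iff.mpr h1.symm, h2])
  rw [inv_mul_eq_one] at h3
  have h4 := semi y ⟨by rw [Subgroup.normalizer_eq_top]; trivial, h1⟩ hne1 w hw
    (mul_inv_eq_iff_eq_mul.mp h3.symm)
  rw [h4, one_smul, eq_inv_smul_iff] at e
  exact hne e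

end Cfsg.Lib.DRA
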